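import Cfsg.Agent.Lib.SporRecognition.SuzG2.Matrices
import Cfsg.Agent.Lib.SporRecognition.Cert.SuzG24V.Lower
import Cfsg.Agent.Lib.OrderDegrees.G2Iso
import Cfsg.Agent.Lib.Chevalley.OrderG2
import Cfsg.Agent.Lib.Chevalley.SimpleData
import Mathlib.FieldTheory.Finite.Basic

/-! The presented group on six involutions is the Chevalley group of type G2 over any field of four elements. -/

set_option autoImplicit false

namespace CfsgLib.SchurMult.G2Four

open Cfsg CfsgLib.SporRecognition.CosetCert CfsgLib.SporRecognition.Cert CfsgLib.SporRecognition.SuzG2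
open CfsgLib.OrderDegrees.G2 (G6 Ygl Ygl_mem Ygl_val)
open Cfsg.Spor.Suz (Gen)
open scoped Matrix

abbrev P6 : Type := PresentedGroup R6

theorem lift_one_of_W6 {A : Type*} [Group A] (f : Gen → A) (h : ∀ w ∈ W6, evalW f w = 1) :
    ∀ r ∈ R6, FreeGroup.lift f r = 1 := by
  intro r hr
  obtain ⟨w, hw, rfl⟩ := List.mem_map.mp hr
  exact h w hw

theorem exists_word (x : P6) : ∃ w : List (Gen × Bool), x = evalW (PresentedGroup.of (rels := R6)) w := by
  obtain ⟨z, rfl⟩ := PresentedGroup.mk_surjective R6 x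
  refine ⟨z.toWord, ?_⟩
  have h2 : FreeGroup.lift (PresentedGroup.of (rels := R6)) = PresentedGroup.mk R6 :=
    FreeGroup.ext_hom _ _ fun a => FreeGroup.lift_apply_of
  rw [evalW, h2, FreeGroup.mk_toWord]

theorem map_evalW {A B : Type*} [Group A] [Group B] (φ : A →* B) (f : Gen → A) (w : List (Gen × Bool)) :
    φ (evalW f w) = evalW (fun a => φ (f a)) w := by
  simp only [evalW_eq_prod, map_list_prod, List.map_map]
  congr 1
  refine List.map_congr_left fun x _ => ?_
  rcases x with ⟨a, _ | _⟩ <;> simp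

/-- The generators in the six dimensional group. -/
noncomputable def gg (a : Gen) : G6 K4 :=
  ⟨((SuzG24V.rootW a).map fun rt => Ygl (F := K4) rt.1 (toK rt.2)).prod,
    list_prod_mem fun x hx => by
      obtain ⟨rt, -, rfl⟩ := List.mem_map.mp hx
      exact Ygl_mem _ _⟩

/-- The matrix of an element. -/
noncomputable def toMat : G6 K4 →* Matrix (Fin 6) (Fin 6) K4 := (Units.coeHom _).comp (G6 K4).subtype

theorem toMat_gg (a : Gen) : toMat (gg a) = mat a := by
  rw [← mat_eq_rootW a]
  show Units.coeHom _ (((SuzG24V.rootW a).map fun rt => Ygl (F := K4) rt.1 (toK rt.2)).prod) = _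
  rw [map_list_prod, List.map_map]
  rfl

theorem gg_inv (a : Gen) : (gg a)⁻¹ = gg a := by
  apply inv_eq_of_mul_eq_one_right
  refine Subtype.ext (Units.ext ?_)
  show toMat (gg a * gg a) = 1
  rw [map_mul, toMat_gg, mat_mul_self]

theorem evalW_gg (w : List (Gen × Bool)) (u : Nat) (hu : u < 4095) :
    toMat (evalW gg w) *ᵥ vec u = vec (trace (wordTabs SuzG24V.tabs w) u) := by
  induction w using List.reverseRecOn generalizing u with
  | nil => simp [evalW_eq_prod, wordTabs]
  | append_singleton w x ih =>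
    rcases x with ⟨a, b⟩
    have hb : SuzG24V.tabs a b = SuzG24V.tabs a true := by cases a <;> rfl
    have hx : toMat (evalW gg [(a, b)]) = mat a := by
      rcases b with _ | _ <;> simp [evalW_eq_prod, toMat_gg, gg_inv]
    rw [evalW_append, map_mul, ← Matrix.mulVec_mulVec, hx, vec_step a u hu,
      ih _ (SuzG24V.tablesOK a true u hu).1]
    simp [wordTabs, hb]

theorem rels_fix : ∀ w ∈ W6, ∀ u, u < 4095 → trace (wordTabs SuzG24V.tabs w) u = u := fun w hw u hu =>
  Nat.eq_of_beq_eq_true (List.all_eq_true.mp (allBelow_spec rels_ok u hu) w hw)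

theorem gg_rels : ∀ w ∈ W6, evalW gg w = 1 := by
  intro w hw
  refine Subtype.ext (Units.ext (eq_one_of_fix fun u hu => ?_))
  exact (evalW_gg w u hu).trans (congrArg vec (rels_fix w hw u hu))

/-- The representation. -/
noncomputable def rep : P6 →* G6 K4 := PresentedGroup.toGroup (lift_one_of_W6 gg gg_rels)

/-- The action on the vectors. -/
noncomputable def perm : P6 →* Equiv.Perm (Fin 4095) :=
  PresentedGroup.toGroup (lift_one_of_W6 (tabPerm SuzG24V.tablesOK)
    fun w hw => evalW_tabPerm_eq_one _ (rels_fix w hw))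

theorem perm_evalW (w : List (Gen × Bool)) (u : Fin 4095) :
    ((perm (evalW (PresentedGroup.of (rels := R6)) w) u : Fin 4095) : Nat) =
      trace (wordTabs SuzG24V.tabs w) u := by
  rw [map_evalW, show (fun a => perm (PresentedGroup.of a)) = tabPerm SuzG24V.tablesOK from
    funext fun a => PresentedGroup.toGroup.of _, evalW_tabPerm]

theorem rep_evalW (w : List (Gen × Bool)) : rep (evalW (PresentedGroup.of (rels := R6)) w) = evalW gg w := by
  rw [map_evalW, show (fun a => rep (PresentedGroup.of a)) = gg from funext fun a => PresentedGroup.toGroup.of _]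

theorem card_P6 : Finite P6 ∧ Nat.card P6 = 251596800 ∧ Function.Injective rep := by
  obtain ⟨hfin, hup⟩ := CfsgLib.SporRecognition.SuzG2.upper
  change Nat.card P6 ≤ 251596800 at hup
  haveI := hfin
  have hlow : 251596800 ≤ Nat.card perm.range := by
    refine SuzG24V.lower _ fun t ht => ?_
    obtain ⟨j, hj, rfl⟩ := List.getElem_of_mem ht
    have hj' : j < SuzG24V.seedW.length := hj
    refine ⟨_, ⟨evalW PresentedGroup.of SuzG24V.seedW[j], rfl⟩, fun u => ?_⟩
    rw [perm_evalW, ← (SuzG24V.seed_ok j hj' u u.2).1, sel_eq, List.getElem?_eq_getElem hj]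
    rfl
  have hle : Nat.card perm.range ≤ Nat.card P6 := Nat.le_of_dvd Nat.card_pos (Subgroup.card_range_dvd perm)
  have hcard : Nat.card P6 = 251596800 := le_antisymm hup (hlow.trans hle)
  have hinj : Function.Injective perm := by
    have hb : Function.Bijective perm.rangeRestrict :=
      (Nat.bijective_iff_surjective_and_card _).mpr ⟨perm.rangeRestrict_surjective, by omega⟩
    intro x y h
    exact hb.injective (Subtype.ext h)
  refine ⟨hfin, hcard, ?_⟩
  rw [← MonoidHom.ker_eq_bot_iff, eq_bot_iff]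
  intro x hx
  obtain ⟨w, rfl⟩ := exists_word x
  rw [MonoidHom.mem_ker, rep_evalW] at hx
  rw [Subgroup.mem_bot]
  apply hinj
  rw [map_one]
  refine Equiv.ext fun u => Fin.ext ?_
  rw [perm_evalW, Equiv.Perm.one_apply]
  refine vec_injective (trace_lt SuzG24V.tablesOK w u u.2) u.2 ?_
  rw [← evalW_gg w u u.2, hx, map_one, Matrix.one_mulVec]


theorem charP_two {F : Type*} [Field F] [Fintype F] (hF : Fintype.card F = 4) : CharP F 2 := by
  obtain ⟨p, hp⟩ := CharP.exists F
  obtain ⟨n, hpp, hn⟩ := FiniteField.card F p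
  have h : p ∣ 2 ^ 2 := by
    rw [show (2 : ℕ) ^ 2 = p ^ (n : ℕ) from by rw [← hn, hF]; norm_num]
    exact dvd_pow_self p n.ne_zero
  exact ((Nat.prime_dvd_prime_iff_eq hpp Nat.prime_two).mp (hpp.dvd_of_dvd_pow h)) ▸ hp

theorem card_G6 {F : Type*} [Field F] [Fintype F] [CharP F 2] (hF : Fintype.card F = 4) : Nat.card (G6 F) = 251596800 := by
  obtain ⟨e⟩ := CfsgLib.OrderDegrees.G2.nonempty_equiv (F := F)
  have h := CfsgLib.Chevalley.cardG2 (F := F)
  rw [hF] at h
  rw [Nat.card_congr e.toEquiv]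
  norm_num [Cfsg.Lie.chevG2] at h ⊢
  omega

theorem map_Ygl {K F : Type*} [Field K] [Field F] [CharP K 2] [CharP F 2] (f : K →+* F) (r : Fin 12) (t : K) :
    Matrix.GeneralLinearGroup.map f (Ygl r t) = Ygl r (f t) := by
  refine Units.ext ?_
  ext i j
  simp [CfsgLib.OrderDegrees.G2.Y, CfsgLib.OrderDegrees.G2.evM, CfsgLib.OrderDegrees.G2.ev, map_list_sum,
    List.map_map, Function.comp_def]

theorem nonempty_equiv {F : Type*} [Field F] [Fintype F] (hF : Fintype.card F = 4) :
    Nonempty (P6 ≃* ↥(Cfsg.Lie.chevG2.group F)) := by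
  classical
  have := charP_two hF
  obtain ⟨f⟩ : Nonempty (K4 ≃+* F) := ⟨FiniteField.ringEquivOfCardEq (by rw [K4.card, hF])⟩
  obtain ⟨hfin, hc, hinj⟩ := card_P6
  haveI := hfin
  let g : G6 K4 →* GL (Fin 6) F := (Matrix.GeneralLinearGroup.map f.toRingHom).comp (G6 K4).subtype
  have hg : ∀ x, g x ∈ G6 F := by
    intro x
    have key : G6 K4 ≤ (G6 F).comap (Matrix.GeneralLinearGroup.map f.toRingHom) := by
      refine (Subgroup.closure_le _).mpr ?_
      rintro y ⟨r, t, rfl⟩
      show Matrix.GeneralLinearGroup.map f.toRingHom (Ygl r t) ∈ G6 F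
      rw [map_Ygl]
      exact Ygl_mem _ _
    exact key x.2
  have hginj : Function.Injective g := fun x y h => Subtype.ext (Units.ext (by
    have h' := congrArg (fun m : GL (Fin 6) F => (m : Matrix (Fin 6) (Fin 6) F)) h
    ext i j
    exact f.injective (congrFun (congrFun h' i) j)))
  let Ψ : P6 →* G6 F := (g.codRestrict (G6 F) hg).comp rep
  have hΨ : Function.Bijective Ψ := (Nat.bijective_iff_injective_and_card _).mpr
    ⟨fun x y h => hinj (hginj (congrArg Subtype.val h)), by rw [hc, card_G6 hF]⟩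
  obtain ⟨e⟩ := CfsgLib.OrderDegrees.G2.nonempty_equiv (F := F)
  exact ⟨(MulEquiv.ofBijective Ψ hΨ).trans e⟩

theorem isSimple_P6 : IsSimpleGroup P6 := by
  obtain ⟨e⟩ := nonempty_equiv K4.card
  have h := (CfsgLib.Chevalley.simpleG2 (F := K4) ⟨K4.w, by decide, by decide⟩).1
  haveI := h
  exact e.isSimpleGroup

end CfsgLib.SchurMult.G2Four
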