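import Cfsg.Agent.Lib.SchurMult.G2Four.UpperData
import Cfsg.Agent.Lib.SchurMult.PermCert
import Cfsg.Agent.Lib.SporRecognition.SuzG2.Presented
import Cfsg.Agent.Lib.SporRecognition.Cert.SuzG416.Tables

/-! The checks on the 416 points. -/

set_option autoImplicit false
set_option maxRecDepth 100000
set_option Elab.async false
set_option linter.all false

namespace CfsgLib.SchurMult.G2Four

open CfsgLib.SporRecognition.CosetCert CfsgLib.SporRecognition.Cert
open CfsgLib.SchurMult.PermCert
open CfsgLib.SporRecognition.SuzG2 (W6)
open Cfsg.Spor.Suz (Gen)

/-- The generator with a number. -/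
def gen : Nat → Gen
  | 0 => .a
  | 1 => .b
  | 2 => .c
  | 3 => .d
  | 4 => .e
  | _ => .f

/-- The word of a listed element. -/
def genWord (i : Nat) : List (Gen × Bool) := (eltWords.getD i []).map fun k => (gen k, true)

/-- The tables of the listed elements. -/
def T416 : Tables where
  n := 416
  depth := 9
  ts := eltTbls

theorem inv416 : ∀ a : Gen, ∀ b : Bool,
    allBelow 9 416 (invStep (SuzG416.tabs a b) (SuzG416.tabs a (!b)) 416) = true := by
  intro a b
  cases a <;> cases b <;> decide +kernel

theorem rels416 : allBelow 9 416 (fun u => W6.all fun w => Nat.beq (trace (wordTabs SuzG416.tabs w) u) u) = true := by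
  decide +kernel

theorem words416 : allBelow 9 416 (fun u => (List.range 22).all fun i =>
    Nat.beq (trace (wordTabs SuzG416.tabs (genWord i)) u) (T416.img i u)) = true := by decide +kernel

theorem length_tbls : T416.ts.length = 22 := by decide +kernel

end CfsgLib.SchurMult.G2Four
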