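import Cfsg.Agent.Lib.SchurMult.G2Four.UpperData
import Cfsg.Agent.Lib.SchurMult.G2Four.Perm416

/-! The relations among the listed elements on the 416 points. -/

set_option autoImplicit false
set_option maxRecDepth 100000
set_option Elab.async false

namespace CfsgLib.SchurMult.G2Four

open CfsgLib.SchurMult.PermCert

theorem rel_ok : (col.rels.all fun r => T416.sameWord r.1 r.2) = true := by decide +kernel

theorem conj_ok : (col.eqs.all fun e =>
      match e with
      | .assoc _ _ => true
      | .conj k m _ => m.all fun q =>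
          T416.sameWord ((col.n + k) :: Collector.digits col.n q.1) (Collector.digits col.n q.2 ++ [col.n + k])) = true := by
  decide +kernel

theorem keys_two : T416.keysIncr ptsTwo (orderTwo.map (Collector.digits col.n)) = true := by decide +kernel

theorem len_two : orderTwo.length = 2 ^ col.n := by decide +kernel

theorem pts_two : ptsTwo.all (fun p => Nat.blt p 416) = true := by decide +kernel

theorem z3_ne : (List.range 416).all (fun u => T416.img 16 u == u) = false := by decide +kernel

/-- Pairs of words with equal values, for the prime 3. -/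
def rels3 : List (List ℕ × List ℕ) :=
  [([14, 15], [16, 15, 14]), (Tables.rep 14 3, []), (Tables.rep 15 3, []), (Tables.rep 16 3, []),
    ([14, 16], [16, 14]), ([15, 16], [16, 15]),
    ([17, 14], Tables.rep 14 1 ++ Tables.rep 16 0 ++ [17]), ([17, 16], Tables.rep 14 0 ++ Tables.rep 16 2 ++ [17]),
    ([18, 15], Tables.rep 15 1 ++ Tables.rep 16 1 ++ [18]), ([18, 16], Tables.rep 15 0 ++ Tables.rep 16 2 ++ [18])]

/-- Pairs of words with equal values, for the prime 5. -/
def rels5 : List (List ℕ × List ℕ) :=
  [([19, 20], [20, 19]), (Tables.rep 19 5, []), (Tables.rep 20 5, []),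
    ([21, 19], Tables.rep 19 4 ++ Tables.rep 20 0 ++ [21]),
    ([21, 20], Tables.rep 19 0 ++ Tables.rep 20 1 ++ [21])]

theorem rels3_ok : rels3.all (fun r => T416.sameWord r.1 r.2) = true := by decide +kernel

theorem rels5_ok : rels5.all (fun r => T416.sameWord r.1 r.2) = true := by decide +kernel

theorem words_ok :
    (T416.keysIncr pts3 words3 = true ∧ words3.length = 3 ^ 3 ∧
      (∀ w ∈ words3, ∀ i ∈ w, i = 14 ∨ i = 15) ∧ ∀ q ∈ pts3, q < 416) ∧
    (T416.keysIncr pts5 words5 = true ∧ words5.length = 5 ^ 2 ∧
      (∀ w ∈ words5, ∀ i ∈ w, i = 19 ∨ i = 20) ∧ ∀ q ∈ pts5, q < 416) := by decide +kernel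

end CfsgLib.SchurMult.G2Four
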