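import Cfsg.Agent.Lib.SchurMult.G2Four.Table
import Cfsg.Agent.Lib.SchurMult.G2Four.TwoCheck
import Cfsg.Agent.Lib.SchurMult.G2Four.Iso
import Cfsg.Agent.Lib.SchurMult.OddSylow
import Cfsg.Agent.Lib.SchurMult.SmallSylow

/-! The kernels of the stem extensions of G2(4) have order at most two. -/

set_option autoImplicit false
set_option maxRecDepth 100000

namespace CfsgLib.SchurMult.G2Four

open CfsgLib.SporRecognition.CosetCert CfsgLib.SporRecognition.Cert
open CfsgLib.SchurMult CfsgLib.SchurMult.PermCert
open CfsgLib.SporRecognition.SuzG2 (W6 R6)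
open Cfsg.Spor.Suz (Gen)

universe v

theorem tablesOK416 : TablesOK SuzG416.tabs 416 := tablesOK_of_checks inv416

/-- The action on 416 points. -/
noncomputable def perm416 : P6 →* Equiv.Perm (Fin 416) :=
  PresentedGroup.toGroup (lift_one_of_W6 (tabPerm tablesOK416) fun w hw =>
    evalW_tabPerm_eq_one _ fun u hu =>
      Nat.eq_of_beq_eq_true (List.all_eq_true.mp (allBelow_spec rels416 u hu) w hw))

theorem perm416_evalW (w : List (Gen × Bool)) (u : Fin 416) :
    ((perm416 (evalW (PresentedGroup.of (rels := R6)) w) u : Fin 416) : Nat) =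
      trace (wordTabs SuzG416.tabs w) u := by
  rw [map_evalW, show (fun a => perm416 (PresentedGroup.of a)) = tabPerm tablesOK416 from
    funext fun a => PresentedGroup.toGroup.of _, evalW_tabPerm]

/-- The listed elements. -/
noncomputable def el6 (i : Nat) : P6 := evalW PresentedGroup.of (genWord i)

theorem img_el6 {i : Nat} (hi : i < 22) (u : Fin 416) :
    ((perm416 (el6 i) u : Fin 416) : Nat) = T416.img i u := by
  rw [el6, perm416_evalW]
  exact Nat.eq_of_beq_eq_true (List.all_eq_true.mp (allBelow_spec words416 u u.2) i (List.mem_range.mpr hi))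

theorem perm416_injective : Function.Injective perm416 := by
  haveI := isSimple_P6
  rcases perm416.normal_ker.eq_bot_or_eq_top with h | h
  · exact (MonoidHom.ker_eq_bot_iff _).mp h
  · exfalso
    have hz := z3_ne
    rw [← Bool.not_eq_true] at hz
    refine hz ?_
    simp only [List.all_eq_true, List.mem_range, beq_iff_eq]
    intro u hu
    rw [← img_el6 (i := 16) (by norm_num) ⟨u, hu⟩, MonoidHom.mem_ker.mp (h ▸ Subgroup.mem_top (el6 16))]
    rfl

variable {G : Type v} [Group G] [Finite G] (e : P6 ≃* G)

/-- The listed elements in a copy of the group. -/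
noncomputable def elG (i : Nat) : G := e (el6 i)

theorem realises : T416.Realises (perm416.comp e.symm.toMonoidHom) (elG e) where
  deg := rfl
  inj := perm416_injective.comp e.symm.injective
  img i hi u := by
    rw [length_tbls] at hi
    simp [elG, img_el6 hi u]

theorem card_G (e : P6 ≃* G) : Nat.card G = 2 ^ 12 * (3 ^ 3 * 5 ^ 2 * 7 * 13) := by
  rw [← Nat.card_congr e.toEquiv, card_P6.2.1]; norm_num

variable {Γ : Type v} [Group Γ] [Finite Γ] {σ : Γ →* G}
include e

/-- The `2`-part. -/
theorem two_part (hσ : Cfsg.IsStemExtension σ) :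
    ∃ w : Γ, w ^ 2 = 1 ∧ ∀ z ∈ σ.ker, ∀ k : ℕ, z ^ 2 ^ k = 1 → z ∈ Subgroup.zpowers w := by
  have hrel := rel_ok
  have hconj := conj_ok
  simp only [List.all_eq_true] at hrel hconj
  have hpair := pair_ok
  simp only [Bool.and_eq_true, decide_eq_true_eq, beq_iff_eq] at hpair
  obtain ⟨⟨⟨⟨hx, hy⟩, hxy⟩, hxx⟩, hsolved⟩ := hpair
  refine two_elements_le_zpowers col (elG e) (fun k => elG e (col.n + k)) table_ok hx hy hxy hxx hsolved
    (fun v hv => ?_) (fun eq he => ?_) ?_ ⟨3 ^ 3 * 5 ^ 2 * 7 * 13, by norm_num, card_G e⟩ hσ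
  · rw [List.getD_eq_getElem _ _ hv]
    exact (realises e).eq_of_sameWord (hrel _ (List.getElem_mem hv))
  · have := hconj eq he
    cases eq with
    | assoc pre v => trivial
    | conj k m pairs =>
      simp only [List.all_eq_true] at this
      intro q hq
      have e' := (realises e).eq_of_sameWord (this q hq)
      rw [lprod, lprod_append, lprod_digits, lprod_digits] at e'
      simp only [lprod, mul_one] at e'
      exact mul_inv_eq_iff_eq_mul.2 e'
  · rw [← len_two]
    have hp := pts_two
    simp only [List.all_eq_true, Nat.blt_eq] at hp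
    have := (realises e).length_le_card hp keys_two
      (Subgroup.closure (elG e '' Set.Iio col.n)) (fun w hw => by
        obtain ⟨x, -, rfl⟩ := List.mem_map.1 hw
        refine Tables.lprod_mem fun i hi => Subgroup.subset_closure ⟨i, Set.mem_Iio.2 ?_, rfl⟩
        have : ∀ k x, ∀ i ∈ Collector.digits k x, i < k := by
          intro k
          induction k with
          | zero => simp [Collector.digits]
          | succ k ih =>
            intro x i hi
            rw [Collector.digits] at hi
            cases hb : x.testBit k <;> simp [hb] at hi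
            · exact (ih x i hi).trans (Nat.lt_succ_self k)
            · rcases hi with hi | rfl
              · exact (ih x i hi).trans (Nat.lt_succ_self k)
              · exact Nat.lt_succ_self i
        exact this _ _ i hi)
    rwa [List.length_map] at this

theorem not_three (hσ : Cfsg.IsStemExtension σ) : ¬ 3 ∣ Nat.card σ.ker := by
  have hok := rels3_ok
  simp only [rels3, List.all_cons, List.all_nil, Bool.and_eq_true, and_true] at hok
  obtain ⟨e1, ex, ey, ez, exz, eyz, egx, egz, ehy, ehz⟩ := hok
  replace e1 := (realises e).eq_of_sameWord e1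
  replace ex := (realises e).eq_of_sameWord ex
  replace ey := (realises e).eq_of_sameWord ey
  replace ez := (realises e).eq_of_sameWord ez
  replace exz := (realises e).eq_of_sameWord exz
  replace eyz := (realises e).eq_of_sameWord eyz
  replace egx := (realises e).eq_of_sameWord egx
  replace egz := (realises e).eq_of_sameWord egz
  replace ehy := (realises e).eq_of_sameWord ehy
  replace ehz := (realises e).eq_of_sameWord ehz
  simp only [lprod_append, Tables.lprod_rep, lprod, mul_one] at e1 ex ey ez exz eyz egx egz ehy ehz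
  obtain ⟨w3, -⟩ := words_ok
  have hzc : elG e 14 * elG e 15 * (elG e 14)⁻¹ * (elG e 15)⁻¹ = elG e 16 := by rw [e1]; group
  refine OddSylow.not_dvd_of_extraspecial hσ (p := 3) Nat.prime_three hzc ex ey ?_ exz eyz
    (mul_inv_eq_iff_eq_mul.2 egx) (mul_inv_eq_iff_eq_mul.2 egz) (by norm_num)
    (mul_inv_eq_iff_eq_mul.2 ehy) (mul_inv_eq_iff_eq_mul.2 ehz) (by norm_num) ?_
  · intro h1
    have hz := z3_ne
    rw [← Bool.not_eq_true] at hz
    refine hz ?_
    simp only [List.all_eq_true, List.mem_range, beq_iff_eq]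
    intro u hu
    rw [← (realises e).img 16 (by decide +kernel) ⟨u, hu⟩, h1, map_one]
    rfl
  · exact (realises e).not_dvd_index Nat.prime_three w3.2.2.2 w3.1 w3.2.1 w3.2.2.1
      (m := 2 ^ 12 * 5 ^ 2 * 7 * 13) (by rw [card_G e]; norm_num) (by norm_num)
      (Tables.natCard_closure_le_cube (by norm_num) ex ey ez hzc exz eyz)

theorem not_five (hσ : Cfsg.IsStemExtension σ) : ¬ 5 ∣ Nat.card σ.ker := by
  have hok := rels5_ok
  simp only [rels5, List.all_cons, List.all_nil, Bool.and_eq_true, and_true] at hok
  obtain ⟨e1, ex, ey, egx, egy⟩ := hok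
  replace e1 := (realises e).eq_of_sameWord e1
  replace ex := (realises e).eq_of_sameWord ex
  replace ey := (realises e).eq_of_sameWord ey
  replace egx := (realises e).eq_of_sameWord egx
  replace egy := (realises e).eq_of_sameWord egy
  simp only [lprod_append, Tables.lprod_rep, lprod, mul_one] at e1 ex ey egx egy
  obtain ⟨-, w5⟩ := words_ok
  exact OddSylow.not_dvd_of_square hσ (p := 5) (by norm_num) e1 ex (mul_inv_eq_iff_eq_mul.2 egx)
    (mul_inv_eq_iff_eq_mul.2 egy) (by norm_num)
    ((realises e).not_dvd_index (p := 5) (by norm_num) w5.2.2.2 w5.1 w5.2.1 w5.2.2.1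
      (m := 2 ^ 12 * 3 ^ 3 * 7 * 13) (by rw [card_G e]; norm_num) (by norm_num)
      (Tables.natCard_closure_le_square (by norm_num) ex ey e1))

/-- Every stem extension has kernel of order at most two. -/
theorem card_ker_dvd_two (hσ : Cfsg.IsStemExtension σ) : Nat.card σ.ker ∣ 2 := by
  obtain ⟨w, hw, hz⟩ := two_part e hσ
  have hodd : ∀ p : ℕ, p.Prime → p ∣ Nat.card σ.ker → p = 2 := fun p hp hpk => by
    by_contra h2
    by_cases h3 : p = 3
    · subst h3; exact not_three e hσ hpk
    by_cases h5 : p = 5
    · subst h5; exact not_five e hσ hpk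
    refine not_dvd_card_ker_of_sq_not_dvd hσ hp ?_ hpk
    rw [card_G e]
    intro hsq
    have hpd : p ∣ 2 ^ 12 * (3 ^ 3 * 5 ^ 2 * 7 * 13) := (dvd_pow_self p two_ne_zero).trans hsq
    simp only [hp.dvd_mul] at hpd
    rcases hpd with h | ((h | h) | h) | h
    · exact h2 ((Nat.prime_dvd_prime_iff_eq hp Nat.prime_two).1 (hp.dvd_of_dvd_pow h))
    · exact h3 ((Nat.prime_dvd_prime_iff_eq hp Nat.prime_three).1 (hp.dvd_of_dvd_pow h))
    · exact h5 ((Nat.prime_dvd_prime_iff_eq hp (by norm_num)).1 (hp.dvd_of_dvd_pow h))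
    · obtain rfl := (Nat.prime_dvd_prime_iff_eq hp (by norm_num)).1 h; norm_num at hsq
    · obtain rfl := (Nat.prime_dvd_prime_iff_eq hp (by norm_num)).1 h; norm_num at hsq
  have htwo := Nat.eq_prime_pow_of_unique_prime_dvd (n := Nat.card σ.ker) Nat.card_pos.ne'
    fun {d} hd hdd => hodd d hd hdd
  have hle : σ.ker ≤ Subgroup.zpowers w := fun z hzk =>
    hz z hzk (Nat.card σ.ker).primeFactorsList.length (by
      have := pow_card_eq_one' (G := σ.ker) (x := ⟨z, hzk⟩)
      rw [htwo] at this
      exact congrArg Subtype.val this)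
  exact (Subgroup.card_dvd_of_le hle).trans
    (by rw [Nat.card_zpowers]; exact orderOf_dvd_of_pow_eq_one hw)

omit e in
/-- The kernels are images of the group of order two. -/
theorem exists_surjective (e : P6 ≃* G) (hσ : Cfsg.IsStemExtension σ) :
    ∃ π : Multiplicative (ZMod 2) →* σ.ker, Function.Surjective π := by
  classical
  rcases (Nat.dvd_prime Nat.prime_two).1 (card_ker_dvd_two e hσ) with h | h
  · haveI := (Nat.card_eq_one_iff_unique.1 h).1
    exact ⟨1, fun x => ⟨1, Subsingleton.elim _ _⟩⟩
  · haveI : Fact (Nat.Prime 2) := ⟨Nat.prime_two⟩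
    let ez := (zmodCyclicMulEquiv (isCyclic_of_prime_card h)).symm.trans
      (AddEquiv.toMultiplicative (ZMod.ringEquivCongr h).toAddEquiv)
    exact ⟨ez.symm.toMonoidHom, ez.symm.surjective⟩

end CfsgLib.SchurMult.G2Four
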