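import Cfsg.Agent.Lib.SchurMult.G2Four.CoverBase

/-! The relators on the signed points, part 1. -/

set_option autoImplicit false
set_option maxRecDepth 20000
set_option Elab.async false

namespace CfsgLib.SchurMult.G2Four

open CfsgLib.SporRecognition.CosetCert

theorem rels8_2 : allPow 4032 relStep8 9 1024 = true := by decide +kernel

theorem rels8_3 : allPow 4032 relStep8 9 1536 = true := by decide +kernel

end CfsgLib.SchurMult.G2Four
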