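import Cfsg.Agent.Lib.SchurMult.G2Four.CoverRels0
import Cfsg.Agent.Lib.SchurMult.G2Four.CoverRels1
import Cfsg.Agent.Lib.SchurMult.G2Four.CoverRels2
import Cfsg.Agent.Lib.SchurMult.G2Four.CoverRels3
import Cfsg.Agent.Lib.SchurMult.G2Four.Iso
import Cfsg.Prelude.Def_KGroupFacts
import Mathlib.GroupTheory.Abelianization.Defs
import Mathlib.GroupTheory.QuotientGroup.Basic

/-! A stem extension of G2(4) with kernel of order two, acting monomially on 4032 pairs of points. -/

set_option autoImplicit false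

namespace CfsgLib.SchurMult.G2Four

open CfsgLib.SporRecognition.CosetCert
open CfsgLib.SporRecognition.SuzG2 (W6 R6)
open Cfsg.Spor.Suz (Gen)

universe u

theorem tablesOK8 : TablesOK tabs8 8064 := tablesOK_of_checks inv8

/-- The lifted generators. -/
noncomputable def C : Gen → Equiv.Perm (Fin 8064) := tabPerm tablesOK8

theorem xor_lt8 {u : Nat} (h : u < 8064) : u ^^^ 1 < 8064 := by
  rcases Nat.even_or_odd u with ⟨k, rfl⟩ | ⟨k, rfl⟩
  · rw [show k + k = 2 * k by ring, Nat.xor_one_of_even (by simp)]; omega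
  · rw [Nat.xor_one_of_odd (by simp)]; omega

/-- The central involution. -/
def Z : Equiv.Perm (Fin 8064) where
  toFun u := ⟨u.1 ^^^ 1, xor_lt8 u.2⟩
  invFun u := ⟨u.1 ^^^ 1, xor_lt8 u.2⟩
  left_inv u := Fin.ext (by simp [Nat.xor_assoc])
  right_inv u := Fin.ext (by simp [Nat.xor_assoc])

theorem Z_val (u : Fin 8064) : ((Z u : Fin 8064) : Nat) = u.1 ^^^ 1 := rfl

theorem flip_eq (a : Gen) (b : Bool) {u : Nat} (hu : u < 8064) : tabs8 a b (u ^^^ 1) = tabs8 a b u ^^^ 1 :=
  Nat.eq_of_beq_eq_true (allBelow_spec (flip8 a b) u hu)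

theorem C_comm (a : Gen) : Commute (C a) Z :=
  Equiv.ext fun u => Fin.ext (flip_eq a true u.2)

theorem evalW_comm (w : List (Gen × Bool)) : Commute (evalW C w) Z := by
  rw [evalW_eq_prod]
  refine Commute.list_prod_left _ _ fun y hy => ?_
  obtain ⟨x, -, rfl⟩ := List.mem_map.mp hy
  rcases x with ⟨a, _ | _⟩
  exacts [(C_comm a).inv_left, C_comm a]

theorem rels_spec {p : List (Gen × Bool) × Nat} (hp : p ∈ W6e) {x : Nat} (hx : x < 4032) :
    trace (wordTabs tabs8 p.1) (2 * x) = 2 * x + p.2 := by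
  have h : relStep8 x = true := by
    by_cases h0 : x < 512
    · exact allPow_spec _ _ _ _ rels8_0 x (Nat.zero_le _) h0 hx
    by_cases h1 : x < 1024
    · exact allPow_spec _ _ _ _ rels8_1 x (by omega) h1 hx
    by_cases h2 : x < 1536
    · exact allPow_spec _ _ _ _ rels8_2 x (by omega) h2 hx
    by_cases h3 : x < 2048
    · exact allPow_spec _ _ _ _ rels8_3 x (by omega) h3 hx
    by_cases h4 : x < 2560
    · exact allPow_spec _ _ _ _ rels8_4 x (by omega) h4 hx
    by_cases h5 : x < 3072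
    · exact allPow_spec _ _ _ _ rels8_5 x (by omega) h5 hx
    by_cases h6 : x < 3584
    · exact allPow_spec _ _ _ _ rels8_6 x (by omega) h6 hx
    · exact allPow_spec _ _ _ _ rels8_7 x (by omega) (by omega) hx
  exact Nat.eq_of_beq_eq_true (List.all_eq_true.mp h p hp)

theorem evalW_rel {w : List (Gen × Bool)} {e : Nat} (hp : (w, e) ∈ W6e) (he : e = 0 ∨ e = 1) :
    evalW C w = if e = 0 then 1 else Z := by
  have heven : ∀ u : Fin 8064, Even u.1 →
      evalW C w u = (if e = 0 then (1 : Equiv.Perm (Fin 8064)) else Z) u := by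
    rintro ⟨u, hu⟩ ⟨k, hk⟩
    dsimp only at hk
    subst hk
    refine Fin.ext ?_
    have := rels_spec hp (x := k) (by omega)
    rw [C, evalW_tabPerm]
    simp only [two_mul] at this
    rw [this]
    rcases he with rfl | rfl
    · simp
    · rw [if_neg one_ne_zero, Z_val, Nat.xor_one_of_even ⟨k, rfl⟩]
  refine Equiv.ext fun u => ?_
  rcases Nat.even_or_odd u.1 with h | h
  · exact heven u h
  · have h' : Even (Z u).1 := by
      rw [Z_val, Nat.xor_one_of_odd h]
      exact Nat.Odd.sub_odd h odd_one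
    have e1 := heven (Z u) h'
    have c1 : evalW C w (Z u) = Z (evalW C w u) := DFunLike.congr_fun (evalW_comm w).eq u
    rw [c1] at e1
    apply Z.injective
    rw [e1]
    split_ifs <;> rfl

theorem mem_W6e_iff : ∀ w ∈ W6, (w, 0) ∈ W6e ∨ (w, 1) ∈ W6e := by decide +kernel

/-- The cover. -/
abbrev Cov : Subgroup (Equiv.Perm (Fin 8064)) := Subgroup.closure (Set.range C)

theorem zWord : ([(.a, true), (.b, true), (.c, true), (.f, true), (.a, true), (.b, true), (.c, true), (.f, true),
    (.a, true), (.b, true), (.c, true), (.f, true), (.a, true), (.b, true), (.c, true), (.f, true),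
    (.a, true), (.b, true), (.c, true), (.f, true)], 1) ∈ W6e := by decide +kernel

theorem evalW_mem (w : List (Gen × Bool)) : evalW C w ∈ Cov := by
  rw [evalW_eq_prod]
  refine list_prod_mem fun y hy => ?_
  obtain ⟨x, -, rfl⟩ := List.mem_map.mp hy
  rcases x with ⟨a, _ | _⟩
  exacts [inv_mem (Subgroup.subset_closure ⟨a, rfl⟩), Subgroup.subset_closure ⟨a, rfl⟩]

theorem Z_mem : Z ∈ Cov := by
  have h := evalW_rel zWord (Or.inr rfl)
  rw [if_neg one_ne_zero] at h
  exact h ▸ evalW_mem _

/-- The central involution of the cover. -/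
def z : Cov := ⟨Z, Z_mem⟩

theorem z_sq : z * z = 1 :=
  Subtype.ext (Equiv.ext fun u => Fin.ext (by
    show (u.1 ^^^ 1) ^^^ 1 = u.1
    simp [Nat.xor_assoc]))

theorem z_ne : z ≠ 1 := fun h => by
  have := congrArg (fun g : Cov => ((g : Equiv.Perm (Fin 8064)) ⟨0, by norm_num⟩).1) h
  simp [z, Z_val] at this

theorem z_central : Subgroup.zpowers z ≤ Subgroup.center Cov := by
  rw [Subgroup.zpowers_le, Subgroup.mem_center_iff]
  rintro ⟨g, hg⟩
  refine Subtype.ext ?_
  show g * Z = Z * g
  have hle : Cov ≤ Subgroup.centralizer {Z} := by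
    refine (Subgroup.closure_le _).mpr ?_
    rintro _ ⟨a, rfl⟩
    exact Subgroup.mem_centralizer_singleton_iff.mpr (C_comm a).eq
  exact Subgroup.mem_centralizer_singleton_iff.mp (hle hg)

/-- The generators inside the cover. -/
noncomputable def c (a : Gen) : Cov := ⟨C a, Subgroup.subset_closure ⟨a, rfl⟩⟩

theorem coe_evalW_c (w : List (Gen × Bool)) : ((evalW c w : Cov) : Equiv.Perm (Fin 8064)) = evalW C w := by
  rw [evalW_eq_prod, evalW_eq_prod, ← Subgroup.coe_subtype, map_list_prod, List.map_map]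
  congr 1
  refine List.map_congr_left fun x _ => ?_
  rcases x with ⟨a, _ | _⟩ <;> rfl

theorem evalW_c_mem {w : List (Gen × Bool)} (hw : w ∈ W6) : evalW c w ∈ Subgroup.zpowers z := by
  rcases mem_W6e_iff w hw with h | h
  · have := evalW_rel h (Or.inl rfl)
    rw [if_pos rfl] at this
    rw [show evalW c w = 1 from Subtype.ext (by rw [coe_evalW_c, this]; rfl)]
    exact one_mem _
  · have := evalW_rel h (Or.inr rfl)
    rw [if_neg one_ne_zero] at this
    rw [show evalW c w = z from Subtype.ext (by rw [coe_evalW_c, this]; rfl)]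
    exact Subgroup.mem_zpowers _

theorem ab_aux {A : Type*} [CommGroup A] {α β γ δ φ ζ : A} (a2 : α * α = 1) (b2 : β * β = 1) (c2 : γ * γ = 1)
    (f2 : φ * φ = 1) (d2 : δ * δ = ζ) (z2 : ζ * ζ = 1) (hab : (α * β) ^ 5 = 1) (hbc : (β * γ) ^ 3 = 1)
    (hbf : (β * φ) ^ 3 = 1) (had : α * (δ⁻¹ * γ⁻¹) ^ 4 = 1) (hz : (α * β * γ * φ) ^ 5 = ζ) : ζ = 1 := by
  have c4 : γ⁻¹ ^ 4 = 1 := by rw [inv_pow, show γ ^ 4 = (γ * γ) * (γ * γ) by simp [pow_succ, mul_assoc], c2, one_mul, inv_one]
  have d4 : δ⁻¹ ^ 4 = 1 := by rw [inv_pow, show δ ^ 4 = (δ * δ) * (δ * δ) by simp [pow_succ, mul_assoc], d2, z2, inv_one]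
  have ha : α = 1 := by rwa [mul_pow, c4, d4, one_mul, mul_one] at had
  have hb : β = 1 := by
    rw [ha, one_mul, show β ^ 5 = (β * β) * (β * β) * β by simp [pow_succ, mul_assoc], b2, one_mul, one_mul] at hab
    exact hab
  have hc : γ = 1 := by
    rw [hb, one_mul, show γ ^ 3 = (γ * γ) * γ by simp [pow_succ, mul_assoc], c2, one_mul] at hbc
    exact hbc
  have hf : φ = 1 := by
    rw [hb, one_mul, show φ ^ 3 = (φ * φ) * φ by simp [pow_succ, mul_assoc], f2, one_mul] at hbf
    exact hbf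
  rw [← hz, ha, hb, hc, hf]; simp

theorem z_mem_commutator : z ∈ commutator Cov := by
  have ev : ∀ (w : List (Gen × Bool)) (e : Nat), (w, e) ∈ W6e → e = 0 ∨ e = 1 →
      evalW (fun a => Abelianization.of (c a)) w = if e = 0 then 1 else Abelianization.of z := by
    intro w e h he
    have h1 : evalW c w = if e = 0 then 1 else z := by
      refine Subtype.ext ?_
      rw [coe_evalW_c, evalW_rel h he]
      rcases he with rfl | rfl <;> simp [z]
    rw [evalW_eq_prod]
    have h2 := congrArg Abelianization.of h1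
    rw [evalW_eq_prod, map_list_prod, List.map_map] at h2
    rw [show (fun x : Gen × Bool => cond x.2 (Abelianization.of (c x.1)) (Abelianization.of (c x.1))⁻¹) =
      (Abelianization.of ∘ fun x : Gen × Bool => cond x.2 (c x.1) (c x.1)⁻¹) from funext fun x => by
        rcases x with ⟨a, _ | _⟩ <;> simp, h2]
    rcases he with rfl | rfl <;> simp
  have hsq : ∀ a ∈ [Gen.a, Gen.b, Gen.c, Gen.f], ([(a, true), (a, true)], 0) ∈ W6e := by decide +kernel
  have e_a := ev _ _ (hsq .a (by simp)) (Or.inl rfl)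
  have e_b := ev _ _ (hsq .b (by simp)) (Or.inl rfl)
  have e_c := ev _ _ (hsq .c (by simp)) (Or.inl rfl)
  have e_f := ev _ _ (hsq .f (by simp)) (Or.inl rfl)
  have e_d := ev [(.d, true), (.d, true)] 1 (by decide +kernel) (Or.inr rfl)
  have e_ab := ev ((List.replicate 5 [(Gen.a, true), (Gen.b, true)]).flatten) 0 (by decide +kernel) (Or.inl rfl)
  have e_bc := ev ((List.replicate 3 [(Gen.b, true), (Gen.c, true)]).flatten) 0 (by decide +kernel) (Or.inl rfl)
  have e_bf := ev ((List.replicate 3 [(Gen.b, true), (Gen.f, true)]).flatten) 0 (by decide +kernel) (Or.inl rfl)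
  have e_ad := ev ([(Gen.a, true)] ++ (List.replicate 4 [(Gen.d, false), (Gen.c, false)]).flatten) 0
    (by decide +kernel) (Or.inl rfl)
  have e_z := ev _ _ zWord (Or.inr rfl)
  have hz2 : Abelianization.of z * Abelianization.of z = 1 := by rw [← map_mul, z_sq, map_one]
  simp only [evalW_eq_prod, List.replicate, List.flatten_cons, List.flatten_nil, List.cons_append,
    List.nil_append, List.append_nil, List.map_cons, List.map_nil, List.prod_cons, List.prod_nil, cond_true,
    cond_false, mul_one, if_true, one_ne_zero, if_false] at e_a e_b e_c e_f e_d e_ab e_bc e_bf e_ad e_z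
  have h := ab_aux e_a e_b e_c e_f e_d hz2 (by rw [← e_ab]; simp [pow_succ, mul_assoc])
    (by rw [← e_bc]; simp [pow_succ, mul_assoc]) (by rw [← e_bf]; simp [pow_succ, mul_assoc])
    (by rw [← e_ad]; simp [pow_succ, mul_assoc]) (by rw [← e_z]; simp [pow_succ, mul_assoc])
  rw [← Abelianization.ker_of (G := Cov)]
  exact h

theorem C_a_zero : tabs8 .a true 0 = 4 ∨ tabs8 .a true 0 = 5 := by decide +kernel

theorem exists_cover {G : Type u} [Group G] (e : P6 ≃* G) :
    ∃ (Γ : Type u) (_ : Group Γ) (_ : Finite Γ) (σ : Γ →* G),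
      Cfsg.IsStemExtension σ ∧ Nonempty (σ.ker ≃* Multiplicative (ZMod 2)) := by
  classical
  haveI hn : (Subgroup.zpowers z).Normal := ⟨fun x hx g => by
    rw [Subgroup.mem_center_iff.mp (z_central hx) g, mul_inv_cancel_right]; exact hx⟩
  let π : Cov →* Cov ⧸ Subgroup.zpowers z := QuotientGroup.mk' _
  have hW : ∀ w ∈ W6, evalW (fun a => π (c a)) w = 1 := by
    intro w hw
    rw [← map_evalW]
    exact (QuotientGroup.eq_one_iff _).mpr (evalW_c_mem hw)
  let φ : P6 →* Cov ⧸ Subgroup.zpowers z := PresentedGroup.toGroup (lift_one_of_W6 _ hW)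
  have hφ : ∀ a, φ (PresentedGroup.of a) = π (c a) := fun a => PresentedGroup.toGroup.of _
  have hsurj : Function.Surjective φ := by
    intro q
    obtain ⟨⟨g, hg⟩, rfl⟩ := QuotientGroup.mk'_surjective (Subgroup.zpowers z) q
    have key : Cov ≤ (φ.range.comap π).map Cov.subtype := by
      refine (Subgroup.closure_le _).mpr ?_
      rintro _ ⟨a, rfl⟩
      exact ⟨c a, ⟨_, hφ a⟩, rfl⟩
    obtain ⟨g', hg', e'⟩ := key hg
    obtain rfl : g' = ⟨g, hg⟩ := Subtype.ext e'
    exact hg'
  have hinj : Function.Injective φ := by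
    haveI := isSimple_P6
    rcases φ.normal_ker.eq_bot_or_eq_top with h | h
    · exact (MonoidHom.ker_eq_bot_iff φ).mp h
    · exfalso
      have h1 : φ (PresentedGroup.of Gen.a) = 1 := MonoidHom.mem_ker.mp (h ▸ Subgroup.mem_top _)
      rw [hφ] at h1
      obtain ⟨k, hk⟩ := (QuotientGroup.eq_one_iff _).mp h1
      have hk' : z ^ k = 1 ∨ z ^ k = z := by
        rcases Int.even_or_odd k with ⟨m, rfl⟩ | ⟨m, rfl⟩
        · exact Or.inl (by rw [zpow_add, ← (Commute.refl z).mul_zpow, z_sq, one_zpow])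
        · exact Or.inr (by rw [zpow_add, two_mul, zpow_add, ← (Commute.refl z).mul_zpow, z_sq, one_zpow,
            one_mul, zpow_one])
      have h0 : ((C Gen.a ⟨0, by norm_num⟩ : Fin 8064) : Nat) = tabs8 .a true 0 := rfl
      have hk0 := congrArg (fun g : Cov => ((g : Equiv.Perm (Fin 8064)) ⟨0, by norm_num⟩).1)
        (show z ^ k = c Gen.a from hk)
      have hv : ((z ^ k : Cov) : Equiv.Perm (Fin 8064)) ⟨0, by norm_num⟩ = C Gen.a ⟨0, by norm_num⟩ :=
        DFunLike.congr_fun (congrArg Subtype.val (show z ^ k = c Gen.a from hk)) _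
      have hlt : (((z ^ k : Cov) : Equiv.Perm (Fin 8064)) ⟨0, by norm_num⟩ : Fin 8064).1 < 2 := by
        rcases hk' with e' | e' <;> rw [e']
        · show (0 : Nat) < 2
          omega
        · show (0 ^^^ 1 : Nat) < 2
          decide
      rw [hv, h0] at hlt
      rcases C_a_zero with e'' | e'' <;> omega
  let ψ : Cov ⧸ Subgroup.zpowers z ≃* G := (MulEquiv.ofBijective φ ⟨hinj, hsurj⟩).symm.trans e
  let τ : Cov →* G := (ψ : Cov ⧸ Subgroup.zpowers z →* G).comp π
  have hker : τ.ker = Subgroup.zpowers z := by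
    ext x
    rw [MonoidHom.mem_ker]
    show ψ (π x) = 1 ↔ _
    rw [MulEquiv.map_eq_one_iff]
    exact QuotientGroup.eq_one_iff x
  let σ : ULift.{u} Cov →* G := τ.comp (MulEquiv.ulift : ULift.{u} Cov ≃* Cov).toMonoidHom
  let eU : Cov →* ULift.{u} Cov := (MulEquiv.ulift : ULift.{u} Cov ≃* Cov).symm.toMonoidHom
  have hkerσ : σ.ker = (Subgroup.zpowers z).map eU := by
    ext x
    constructor
    · intro hx
      exact ⟨x.down, hker ▸ hx, rfl⟩
    · rintro ⟨y, hy, rfl⟩
      exact (hker ▸ hy : y ∈ τ.ker)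
  have hord : orderOf z = 2 := by
    haveI : Fact (Nat.Prime 2) := ⟨Nat.prime_two⟩
    exact orderOf_eq_prime (by rw [pow_two, z_sq]) z_ne
  refine ⟨ULift.{u} Cov, inferInstance, inferInstance, σ, ⟨?_, ?_, ?_⟩, ?_⟩
  · exact (ψ.surjective.comp (QuotientGroup.mk'_surjective _)).comp (MulEquiv.ulift).surjective
  · rw [hkerσ]
    rintro _ ⟨y, hy, rfl⟩
    rw [Subgroup.mem_center_iff]
    intro g
    exact congrArg ULift.up (Subgroup.mem_center_iff.mp (z_central hy) g.down)
  · rw [hkerσ, Subgroup.map_le_iff_le_comap, Subgroup.zpowers_le, Subgroup.mem_comap]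
    have : commutator Cov ≤ (commutator (ULift.{u} Cov)).comap eU := by
      rw [← Subgroup.map_le_iff_le_comap, commutator_def, Subgroup.map_commutator, commutator_def]
      exact Subgroup.commutator_mono le_top le_top
    exact this z_mem_commutator
  · have hcyc : IsCyclic σ.ker := by
      rw [hkerσ]
      exact isCyclic_of_surjective (MonoidHom.subgroupMap eU (Subgroup.zpowers z))
        (MonoidHom.subgroupMap_surjective _ _)
    have hcard : Nat.card σ.ker = 2 := by
      rw [hkerσ, Subgroup.card_map_of_injective (MulEquiv.injective _), Nat.card_zpowers, hord]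
    exact ⟨(zmodCyclicMulEquiv hcyc).symm.trans
      (AddEquiv.toMultiplicative (ZMod.ringEquivCongr hcard).toAddEquiv)⟩

end CfsgLib.SchurMult.G2Four
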