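import Cfsg.Agent.Lib.SchurMult.G2Four.CoverData

/-! The checks on the monomial tables of the double cover of G2(4). -/

set_option autoImplicit false
set_option maxRecDepth 20000
set_option Elab.async false
set_option linter.all false

namespace CfsgLib.SchurMult.G2Four

open CfsgLib.SporRecognition.CosetCert
open CfsgLib.SporRecognition.SuzG2 (W6)
open Cfsg.Spor.Suz (Gen)

/-- The tables on the signed points. -/
noncomputable def tabs8 (a : Gen) (b : Bool) (u : Nat) : Nat :=
  Nat.add (Nat.mul 2 (base a (Nat.shiftRight u 1)))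
    (Nat.xor (Nat.xor (Nat.land u 1) (sign a (Nat.shiftRight u 1))) (bif b then 0 else sqSign a))

noncomputable def flipStep (a : Gen) (b : Bool) (u : Nat) : Bool :=
  Nat.beq (tabs8 a b (Nat.xor u 1)) (Nat.xor (tabs8 a b u) 1)

/-- The relators with their signs. -/
noncomputable def W6e : List (List (Gen × Bool) × Nat) := W6.zip signs

noncomputable def relStep8 (x : Nat) : Bool :=
  W6e.all fun p => Nat.beq (trace (wordTabs tabs8 p.1) (Nat.mul 2 x)) (Nat.add (Nat.mul 2 x) p.2)

theorem inv8 : ∀ a : Gen, ∀ b : Bool, allBelow 13 8064 (invStep (tabs8 a b) (tabs8 a (!b)) 8064) = true := by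
  intro a b
  cases a <;> cases b <;> decide +kernel

theorem flip8 : ∀ a : Gen, ∀ b : Bool, allBelow 13 8064 (flipStep a b) = true := by
  intro a b
  cases a <;> cases b <;> decide +kernel

end CfsgLib.SchurMult.G2Four
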