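import Cfsg.Agent.Lib.SchurMult.G2Four.TableG0
import Cfsg.Agent.Lib.SchurMult.G2Four.TableG1
import Cfsg.Agent.Lib.SchurMult.G2Four.TableG2
import Cfsg.Agent.Lib.SchurMult.G2Four.TableG3
import Cfsg.Agent.Lib.SchurMult.G2Four.TableG4
import Cfsg.Agent.Lib.SchurMult.G2Four.TableG5
import Cfsg.Agent.Lib.SchurMult.G2Four.TableG6
import Cfsg.Agent.Lib.SchurMult.G2Four.TableG7
import Cfsg.Agent.Lib.SchurMult.G2Four.TableG8
import Cfsg.Agent.Lib.SchurMult.G2Four.TableG9
import Cfsg.Agent.Lib.SchurMult.G2Four.TableG10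
import Cfsg.Agent.Lib.SchurMult.G2Four.TableG11
import Cfsg.Agent.Lib.SchurMult.TwoCollectOne

/-! The collection table of the Sylow 2-subgroup of G2(4). -/

set_option autoImplicit false
set_option maxRecDepth 100000
set_option Elab.async false

namespace CfsgLib.SchurMult.G2Four

theorem table_ok : col.tableOK = true := by
  rw [Collector.tableOK, List.all_eq_true]
  intro i hi
  rw [List.mem_range] at hi
  change i < 12 at hi
  interval_cases i
  exacts [table_ok_0, table_ok_1, table_ok_2, table_ok_3, table_ok_4, table_ok_5, table_ok_6, table_ok_7,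
    table_ok_8, table_ok_9, table_ok_10, table_ok_11]

theorem pair_ok : (decide (pairX < 2 ^ col.n) && decide (pairY < 2 ^ col.n) &&
    (col.mulNF pairX pairY).1 == (col.mulNF pairY pairX).1 && (col.mulNF pairX pairX).1 == 0 &&
    col.solvedOneOK (pairComm col pairX pairY) extra) = true := by decide +kernel

end CfsgLib.SchurMult.G2Four
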