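import Cfsg.Agent.Lib.SchurMult.G2Four.UpperData
import Cfsg.Agent.Lib.SchurMult.TwoCollectOne

/-! The collection table of the Sylow 2-subgroup of G2(4). -/

set_option autoImplicit false
set_option maxRecDepth 100000
set_option Elab.async false

namespace CfsgLib.SchurMult.G2Four

theorem table_part_0_0 : (List.range' 0 512).all (col.entryOK 0) = true := by decide +kernel

theorem table_part_0_1 : (List.range' 512 512).all (col.entryOK 0) = true := by decide +kernel

theorem table_part_0_2 : (List.range' 1024 512).all (col.entryOK 0) = true := by decide +kernel

theorem table_part_0_3 : (List.range' 1536 512).all (col.entryOK 0) = true := by decide +kernel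

theorem table_part_0_4 : (List.range' 2048 512).all (col.entryOK 0) = true := by decide +kernel

theorem table_part_0_5 : (List.range' 2560 512).all (col.entryOK 0) = true := by decide +kernel

theorem table_part_0_6 : (List.range' 3072 512).all (col.entryOK 0) = true := by decide +kernel

theorem table_part_0_7 : (List.range' 3584 512).all (col.entryOK 0) = true := by decide +kernel

theorem table_ok_0 : (List.range (2 ^ col.n)).all (col.entryOK 0) = true := by
  rw [show List.range (2 ^ col.n) = List.range' 0 512 ++ List.range' 512 512 ++ List.range' 1024 512 ++ List.range' 1536 512 ++ List.range' 2048 512 ++ List.range' 2560 512 ++ List.range' 3072 512 ++ List.range' 3584 512 from by decide +kernel]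
  simp only [List.all_append, table_part_0_0, table_part_0_1, table_part_0_2, table_part_0_3, table_part_0_4, table_part_0_5, table_part_0_6, table_part_0_7, Bool.and_self]

end CfsgLib.SchurMult.G2Four
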